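-- Team project SUG (S2412), case [GEN]: the package [GARITH] (helper74).
import Mathlib
import Cfsg.Agent.Lib.Helper60.SUG.GenDefs
import Cfsg.Agent.Lib.Helper32.SUG.Field

set_option autoImplicit false

namespace Cfsg.Agent.Lib.Helper74.SUG

open Cfsg.Agent.Lib.Helper60.SUG Cfsg.Agent.Lib.Helper32.SUG

universe u

theorem garith_sq {q : ℕ} (hq : 1 ≤ q) : (q + 1) * (q - 1) = q ^ 2 - 1 := by
  obtain ⟨k, rfl⟩ := Nat.exists_eq_add_of_le hq
  simp only [Nat.add_sub_cancel_left]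
  have : (1 + k) ^ 2 = (1 + k + 1) * k + 1 := by ring
  omega

theorem garith_gcd_dvd_two {a b : ℕ} (hab : a + 2 = b) : Nat.gcd a b ∣ 2 := by
  have h1 : Nat.gcd a b ∣ b - a := Nat.dvd_sub (Nat.gcd_dvd_right a b) (Nat.gcd_dvd_left a b)
  have h2 : b - a = 2 := by omega
  rwa [h2] at h1

/-- `q` even: `q - 1` and `q + 1` are coprime. -/
theorem garith_cop_even {q : ℕ} (hq : 3 ≤ q) (h2 : q % 2 = 0) : Nat.Coprime (q - 1) (q + 1) := by
  have h1 : Nat.gcd (q - 1) (q + 1) ∣ 2 := garith_gcd_dvd_two (by omega)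
  rcases (Nat.dvd_prime Nat.prime_two).1 h1 with h | h
  · exact h
  · exfalso
    have h3 := Nat.gcd_dvd_left (q - 1) (q + 1)
    rw [h] at h3
    omega

/-- `q ≡ 1 (mod 4)`: `q - 1` and `(q + 1) / 2` are coprime. -/
theorem garith_cop_one {q : ℕ} (hq : 3 ≤ q) (h4 : q % 4 = 1) :
    Nat.Coprime (q - 1) ((q + 1) / 2) := by
  have hd : (q + 1) / 2 ∣ q + 1 := ⟨2, by omega⟩
  have h0 : Nat.gcd (q - 1) ((q + 1) / 2) ∣ Nat.gcd (q - 1) (q + 1) :=
    Nat.gcd_dvd_gcd_of_dvd_right _ hd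
  have h1 : Nat.gcd (q - 1) ((q + 1) / 2) ∣ 2 := h0.trans (garith_gcd_dvd_two (by omega))
  rcases (Nat.dvd_prime Nat.prime_two).1 h1 with h | h
  · exact h
  · exfalso
    have h3 := Nat.gcd_dvd_right (q - 1) ((q + 1) / 2)
    rw [h] at h3
    omega

/-- `q ≡ 3 (mod 4)`: `(q - 1) / 2` and `q + 1` are coprime. -/
theorem garith_cop_three {q : ℕ} (hq : 3 ≤ q) (h4 : q % 4 = 3) :
    Nat.Coprime ((q - 1) / 2) (q + 1) := by
  have hd : (q - 1) / 2 ∣ q - 1 := ⟨2, by omega⟩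
  have h0 : Nat.gcd ((q - 1) / 2) (q + 1) ∣ Nat.gcd (q - 1) (q + 1) :=
    Nat.gcd_dvd_gcd_of_dvd_left _ hd
  have h1 : Nat.gcd ((q - 1) / 2) (q + 1) ∣ 2 := h0.trans (garith_gcd_dvd_two (by omega))
  rcases (Nat.dvd_prime Nat.prime_two).1 h1 with h | h
  · exact h
  · exfalso
    have h3 := Nat.gcd_dvd_left ((q - 1) / 2) (q + 1)
    rw [h] at h3
    omega

section field

variable {F : Type u} [Field F] [Fintype F] {q : ℕ}

omit [Fintype F] in
/-- a power `g ^ k` with `0 < k < q² - 1` of a generator is not `1`. -/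
theorem garith_pow_ne_one {g : F} (hg : orderOf g = q ^ 2 - 1) {k : ℕ} (hk0 : 0 < k)
    (hk : k < q ^ 2 - 1) : g ^ k ≠ 1 := by
  intro h
  have h1 : q ^ 2 - 1 ∣ k := hg ▸ orderOf_dvd_of_pow_eq_one h
  have h2 := Nat.le_of_dvd hk0 h1
  omega

/-- [GARITH]. -/
theorem pkgGArith : PkgGArith.{u} := by
  intro F _ _ q _ hF hq3
  obtain ⟨g, hg0, hg, hgen⟩ := exists_gen (q := q) hF
  have hsq : (q + 1) * (q - 1) = q ^ 2 - 1 := garith_sq (by omega)
  have hqq : 4 * (q - 1) < q ^ 2 - 1 ∨ q = 3 := by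
    rcases Nat.lt_or_ge 3 q with h | h
    · left
      rw [← hsq]
      exact Nat.mul_lt_mul_of_pos_right (by omega) (by omega)
    · right; omega
  have hqq2 : 2 * (q - 1) < q ^ 2 - 1 := by
    rw [← hsq]
    exact Nat.mul_lt_mul_of_pos_right (by omega) (by omega)
  set γ : F := g ^ (q + 1) with hγ
  set β : F := g ^ (q - 1) with hβ
  have hγ0 : γ ≠ 0 := pow_ne_zero _ hg0
  have hγ1 : γ ^ (q - 1) = 1 := by
    rw [hγ, ← pow_mul, hsq, ← hg, pow_orderOf_eq_one]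
  have hβ1 : β ^ (q + 1) = 1 := by
    rw [hβ, ← pow_mul, mul_comm, hsq, ← hg, pow_orderOf_eq_one]
  have hγq : γ ^ q = γ := mu_fixed (by omega) hg
  have hγ2 : γ ^ (q + 1) = γ ^ 2 := by
    rw [pow_succ, hγq, sq]
  have hspan : ∀ x : F, x ^ q = x →
      x ∈ AddSubmonoid.closure (Set.range fun j : ℕ => (γ ^ 2) ^ j) :=
    fun x hx => fixed_span hF hg0 hg hgen x hx
  have hβsq : β ^ 2 ≠ 1 := by
    rw [hβ, ← pow_mul]
    exact garith_pow_ne_one hg (by omega) (by rw [mul_comm]; exact hqq2)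
  rcases Nat.even_or_odd q with he | ho
  · -- `q` even
    have h2 : q % 2 = 0 := Nat.even_iff.1 he
    refine ⟨γ, β, hγ0, hγq, hβ1, hβsq, ?_, ?_⟩
    · exact ((garith_cop_even hq3 h2).coprime_dvd_left (orderOf_dvd_of_pow_eq_one hγ1)).coprime_dvd_right
        (orderOf_dvd_of_pow_eq_one hβ1)
    · intro x hx
      rw [hγ2]
      exact hspan x hx
  · have h2 : q % 2 = 1 := Nat.odd_iff.1 ho
    have h4 : q % 4 = 1 ∨ q % 4 = 3 := by omega
    rcases h4 with h4 | h4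
    · -- `q ≡ 1 (mod 4)`: `α = β ^ 2`
      have hq5 : 5 ≤ q := by omega
      refine ⟨γ, β ^ 2, hγ0, hγq, ?_, ?_, ?_, ?_⟩
      · rw [← pow_mul, mul_comm, pow_mul, hβ1, one_pow]
      · rw [hβ, ← pow_mul, ← pow_mul]
        refine garith_pow_ne_one hg (by omega) ?_
        rcases hqq with h | h
        · have e : (q - 1) * (2 * 2) = 4 * (q - 1) := by ring
          rw [e]
          exact h
        · omega
      · have hα : (β ^ 2) ^ ((q + 1) / 2) = 1 := by
          rw [← pow_mul]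
          have : 2 * ((q + 1) / 2) = q + 1 := by omega
          rw [this, hβ1]
        exact ((garith_cop_one hq3 h4).coprime_dvd_left (orderOf_dvd_of_pow_eq_one hγ1)).coprime_dvd_right
          (orderOf_dvd_of_pow_eq_one hα)
      · intro x hx
        rw [hγ2]
        exact hspan x hx
    · -- `q ≡ 3 (mod 4)`: `μ = γ ^ 2`
      refine ⟨γ ^ 2, β, pow_ne_zero _ hγ0, ?_, hβ1, hβsq, ?_, ?_⟩
      · rw [← pow_mul, mul_comm, pow_mul, hγq]
      · have hμ : (γ ^ 2) ^ ((q - 1) / 2) = 1 := by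
          rw [← pow_mul]
          have : 2 * ((q - 1) / 2) = q - 1 := by omega
          rw [this, hγ1]
        exact ((garith_cop_three hq3 h4).coprime_dvd_left (orderOf_dvd_of_pow_eq_one hμ)).coprime_dvd_right
          (orderOf_dvd_of_pow_eq_one hβ1)
      · intro x hx
        have hsub : (Set.range fun j : ℕ => (γ ^ 2) ^ j) ⊆
            Set.range fun j : ℕ => ((γ ^ 2) ^ (q + 1)) ^ j := by
          rintro _ ⟨j, rfl⟩
          refine ⟨(q + 1) / 4 * j, ?_⟩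
          show ((γ ^ 2) ^ (q + 1)) ^ ((q + 1) / 4 * j) = (γ ^ 2) ^ j
          have e1 : (γ ^ 2) ^ (q + 1) = γ ^ 4 := by
            rw [← pow_mul, mul_comm, pow_mul, hγ2, ← pow_mul]
          rw [e1, ← pow_mul, ← mul_assoc]
          have e2 : 4 * ((q + 1) / 4) = q + 1 := by omega
          rw [e2, pow_mul, hγ2]
        exact AddSubmonoid.closure_mono hsub (hspan x hx)

end field

end Cfsg.Agent.Lib.Helper74.SUG
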