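-- Team project SUG (S2412), case [GEN]: the package [GCOMM1] (helper74).
import Mathlib
import Cfsg.Agent.Lib.Helper60.SUG.GenDefs
import Cfsg.Agent.Lib.Helper20.SUG.Conj

set_option autoImplicit false

namespace Cfsg.Agent.Lib.Helper74.SUG

open Matrix Cfsg.Agent.Lib.Helper60.SUG Cfsg.Agent.Lib.Helper13 Cfsg.Agent.Lib.Helper45
  Cfsg.Agent.Lib.Helper20.SUG

universe u

/-- [GCOMM1]. -/
theorem pkgGComm1 : PkgGComm1.{u} := by
  intro F _ _ q hF n hn lam μ c₀ c g₀ t hlam hc₀ hc hg₀ ht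
  set w : Fin n → F := mat (c⁻¹ * c⁻¹) *ᵥ vA n lam with hw
  have hccw : mat c *ᵥ (mat c *ᵥ w) = vA n lam := by
    rw [hw, Matrix.mulVec_mulVec, Matrix.mulVec_mulVec, ← mat_mul', ← mat_mul']
    have e : c * c * (c⁻¹ * c⁻¹) = 1 := by group
    rw [e]
    show (1 : Matrix (Fin n) (Fin n) F) *ᵥ vA n lam = vA n lam
    rw [Matrix.one_mulVec]
  have hw0 : ∀ i : Fin n, (i : ℕ) < 2 → w i = 0 := by
    intro i hi
    have hi1 : (i : ℕ) + 1 < n := by omega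
    have hi2 : (i : ℕ) + 2 < n := by omega
    have h1 := hc.1 (mat c *ᵥ w) ⟨i + 1, hi1⟩ ⟨i + 2, hi2⟩ rfl
    have h2 := hc.1 w i ⟨i + 1, hi1⟩ rfl
    rw [hccw] at h1
    rw [← h2, ← h1]
    have h3 : ¬ ((i : ℕ) + 2 = 0) := by omega
    have h4 : ¬ ((i : ℕ) + 2 = 1) := by omega
    simp only [vA, h3, h4, if_false]
  have htw : mat t *ᵥ w = w := ht.2.2.1 w hw0
  have ht'v : mat (c * c * t * c⁻¹ * c⁻¹) *ᵥ vA n lam = vA n lam := by
    have e : c * c * t * c⁻¹ * c⁻¹ = c * (c * (t * (c⁻¹ * c⁻¹))) := by group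
    rw [e, mat_mul', mat_mul', mat_mul', ← Matrix.mulVec_mulVec, ← Matrix.mulVec_mulVec,
      ← Matrix.mulVec_mulVec, ← hw, htw, hccw]
  have key : ∀ t' : ↥(Cfsg.SU n F q), mat t' *ᵥ vA n lam = vA n lam → g₀ * t' = t' * g₀ := by
    intro t' h
    apply su_ext
    show mat (g₀ * t') = mat (t' * g₀)
    rw [mat_mul', mat_mul', hg₀, utransv_conj (mat_isHermIso t') (vA n lam) c₀, h]
  exact key _ ht'v

end Cfsg.Agent.Lib.Helper74.SUG
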