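-- Team project SUG (S2412), case [GEN]: the packages [GEX] and [GTRV] (helper74).
import Mathlib
import Cfsg.Agent.Lib.Helper60.SUG.GenDefs
import Cfsg.Agent.Lib.Helper13.SUGen3

set_option autoImplicit false

namespace Cfsg.Agent.Lib.Helper74.SUG

open Matrix Cfsg.Agent.Lib.Helper60.SUG Cfsg.Agent.Lib.Helper13 Cfsg.Agent.Lib.Helper45
  Cfsg.Agent.Lib.Helper44

universe u

/-- [GEX]. -/
theorem pkgGEx : PkgGEx.{u} := by
  intro F _ _ q hF
  obtain ⟨lam, hlam⟩ := exists_norm_eq hF (-1 : F) (neg_ne_zero.mpr one_ne_zero)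
    (by rw [conj_neg hF, one_pow])
  obtain ⟨i, hi0, hi⟩ := exists_skew hF
  exact ⟨lam, i, hlam, hi0, hi⟩

section trv

variable {F : Type u} [Field F] [Fintype F] {q : ℕ}

omit [Fintype F] in
/-- `vA` is isotropic. -/
theorem vA_iso (n : ℕ) (hn : 2 ≤ n) (lam : F) (hlam : lam ^ (q + 1) = -1) :
    Cfsg.hermForm n F q (vA n lam) (vA n lam) = 0 := by
  unfold Cfsg.hermForm
  have h0 : (0 : ℕ) < n := by omega
  have h1 : (1 : ℕ) < n := by omega
  rw [Finset.sum_eq_add_of_mem (⟨0, h0⟩ : Fin n) ⟨1, h1⟩ (Finset.mem_univ _) (Finset.mem_univ _)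
    (by simp [Fin.ext_iff])]
  · simp only [vA]
    simp only [if_true, one_pow, mul_one, one_ne_zero, if_false]
    rw [← pow_succ', hlam]
    ring
  · intro i _ hi
    have hi0 : (i : ℕ) ≠ 0 := fun h => hi.1 (Fin.ext h)
    have hi1 : (i : ℕ) ≠ 1 := fun h => hi.2 (Fin.ext h)
    simp [vA, hi0, hi1]

/-- powers of a transvection. -/
theorem utransv_pow {n : ℕ} (v : Fin n → F) (c : F) (hv : Cfsg.hermForm n F q v v = 0) (k : ℕ) :
    Cfsg.unitaryTransvection n q v c ^ k = Cfsg.unitaryTransvection n q v ((k : F) * c) := by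
  induction k with
  | zero => rw [pow_zero, Nat.cast_zero, zero_mul, utransv_zero]
  | succ k ih =>
    rw [pow_succ, ih, utransv_mul v _ _ hv]
    congr 1
    push_cast
    ring

/-- [GTRV]. -/
theorem pkgGTrv : PkgGTrv.{u} := by
  intro F _ _ q hF n hn lam c₀ hlam hc₀
  have hv := vA_iso (q := q) n hn lam hlam
  refine ⟨suMk (Cfsg.unitaryTransvection n q (vA n lam) c₀) (det_utransv _ _ hv)
    (isHermIso_utransv hF _ _ hv hc₀), rfl, ?_⟩
  apply su_ext
  show ((((suMk (Cfsg.unitaryTransvection n q (vA n lam) c₀) (det_utransv _ _ hv)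
    (isHermIso_utransv hF _ _ hv hc₀) : ↥(Cfsg.SU n F q)) ^ ringChar F :
      ↥(Cfsg.SU n F q)) : Matrix.SpecialLinearGroup (Fin n) F) : Matrix (Fin n) (Fin n) F) = 1
  rw [SubgroupClass.coe_pow, Matrix.SpecialLinearGroup.coe_pow]
  show Cfsg.unitaryTransvection n q (vA n lam) c₀ ^ ringChar F = 1
  rw [utransv_pow _ _ hv, ringChar.Nat.cast_ringChar, zero_mul, utransv_zero]

end trv

end Cfsg.Agent.Lib.Helper74.SUG
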